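import Mathlib
import Cfsg.Agent.H821.K547.Defs
import Cfsg.Agent.H777.PGrp

/-!
# A criterion for `D3` (S4547, helper4)

`crit` : `M ≤ G` of odd index, `L` normal in `M`, the Sylow 2-subgroups of `L` have order divisible by 4 and centre of
order at most 2, and `M` maps onto a four-group with `L` in the kernel. Then the Sylow 2-subgroups of `G` need at
least three generators.
-/

set_option autoImplicit false

namespace Cfsg.Agent.H4.K547

open Cfsg Cfsg.Agent.H821.K547

universe u v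

theorem exists_central {Q : Type u} [Group Q] [Finite Q] (hQ : IsPGroup 2 Q) {N : Subgroup Q} (hn : N.Normal)
    (hN : N ≠ ⊥) : ∃ z ∈ N, (∀ g, g * z = z * g) ∧ z ≠ 1 ∧ z * z = 1 := by
  obtain ⟨b, hb, hb1, hbc⟩ := Cfsg.Agent.H777.PGrp.inf_center_ne_bot hQ hN hn
  obtain ⟨k, hk⟩ := (IsPGroup.iff_orderOf.mp hQ) b
  have hk0 : k ≠ 0 := by
    rintro rfl
    rw [pow_zero, orderOf_eq_one_iff] at hk
    exact hb1 hk
  obtain ⟨j, rfl⟩ : ∃ j, k = j + 1 := ⟨k - 1, by omega⟩
  refine ⟨b ^ 2 ^ j, N.pow_mem hb _, fun g => Commute.pow_right (show Commute g b from hbc g) _, ?_, ?_⟩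
  · intro h
    have h1 := orderOf_dvd_of_pow_eq_one h
    rw [hk, Nat.pow_dvd_pow_iff_le_right (by norm_num)] at h1
    omega
  · rw [← pow_add, ← two_mul, ← pow_succ', ← hk, pow_orderOf_eq_one]

/-- A normal subgroup of order at least 4 with centre of order at most 2 is not contained in the Frattini
subgroup. -/
theorem exists_hom {Q : Type u} [Group Q] [Finite Q] (hQ : IsPGroup 2 Q) (N : Subgroup Q) (hn : N.Normal)
    (h4 : 4 ≤ Nat.card N)
    (hZ : ∀ x ∈ N, ∀ y ∈ N, (∀ g ∈ N, g * x = x * g) → (∀ g ∈ N, g * y = y * g) → x ≠ 1 → y ≠ 1 → x = y) :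
    ∃ l : Q →* Multiplicative (ZMod 2), ∃ x ∈ N, l x ≠ 1 := by
  classical
  have hN : N ≠ ⊥ := by
    rintro rfl
    rw [Subgroup.card_bot] at h4
    omega
  obtain ⟨z, hzN, hzc, hz1, hz2⟩ := exists_central hQ hn hN
  have hZn : (Subgroup.zpowers z).Normal := by
    refine ⟨fun x hx g => ?_⟩
    obtain ⟨k, rfl⟩ := Subgroup.mem_zpowers_iff.mp hx
    have : g * z ^ k * g⁻¹ = z ^ k := by
      rw [(Commute.zpow_right (show Commute g z from hzc g) k).eq, mul_assoc, mul_inv_cancel, mul_one]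
    rw [this]
    exact hx
  have hmem : ∀ x ∈ Subgroup.zpowers z, x = 1 ∨ x = z := by
    intro x hx
    obtain ⟨k, rfl⟩ := Subgroup.mem_zpowers_iff.mp hx
    rcases Int.even_or_odd' k with ⟨m, rfl | rfl⟩
    · left
      rw [zpow_mul, zpow_ofNat, pow_two, hz2, one_zpow]
    · right
      rw [zpow_add, zpow_mul, zpow_ofNat, pow_two, hz2, one_zpow, one_mul, zpow_one]
  have hcard : Nat.card (Subgroup.zpowers z) = 2 := by
    rw [Nat.card_zpowers]
    exact orderOf_eq_prime (by rw [pow_two, hz2]) hz1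
  have hN' : N.map (QuotientGroup.mk' (Subgroup.zpowers z)) ≠ ⊥ := by
    intro h
    rw [Subgroup.map_eq_bot_iff, QuotientGroup.ker_mk'] at h
    have := Subgroup.card_le_of_le h
    omega
  have hQ' : IsPGroup 2 (Q ⧸ Subgroup.zpowers z) := hQ.to_quotient _
  have hn' : (N.map (QuotientGroup.mk' (Subgroup.zpowers z))).Normal :=
    hn.map _ (QuotientGroup.mk'_surjective _)
  obtain ⟨e', he', he1', hec'⟩ := Cfsg.Agent.H777.PGrp.inf_center_ne_bot hQ' hN' hn'
  obtain ⟨e, heN, rfl⟩ := he'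
  have hez : e ∉ Subgroup.zpowers z := by
    intro h
    exact he1' ((QuotientGroup.eq_one_iff e).mpr h)
  have hc : ∀ g, g * e = e * g ∨ g * e = e * g * z := by
    intro g
    have h1 := hec' (QuotientGroup.mk' _ g)
    rw [← map_mul, ← map_mul] at h1
    have h2 : (e * g)⁻¹ * (g * e) ∈ Subgroup.zpowers z := QuotientGroup.eq.mp h1.symm
    rcases hmem _ h2 with h3 | h3
    · left
      exact (inv_mul_eq_one.mp h3).symm
    · right
      rw [inv_mul_eq_iff_eq_mul] at h3
      exact h3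
  have hne : ∀ g, g * e = e * g * z → g * e ≠ e * g := by
    intro g h h'
    rw [h'] at h
    exact hz1 (mul_left_cancel (a := e * g) (by rw [← h, mul_one]))
  let l : Q →* Multiplicative (ZMod 2) :=
    { toFun := fun g => if g * e = e * g then 1 else Multiplicative.ofAdd 1
      map_one' := by simp
      map_mul' := by
        intro g h
        rcases hc g with hg | hg <;> rcases hc h with hh | hh
        · rw [if_pos hg, if_pos hh, if_pos, mul_one]
          rw [mul_assoc, hh, ← mul_assoc, hg, mul_assoc]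
        · rw [if_pos hg, if_neg (hne h hh), if_neg, one_mul]
          apply hne
          rw [mul_assoc, hh, ← mul_assoc, ← mul_assoc, hg, mul_assoc e g h]
        · rw [if_neg (hne g hg), if_pos hh, if_neg, mul_one]
          apply hne
          rw [mul_assoc, hh, ← mul_assoc, hg, mul_assoc (e * g) z h, ← hzc h, ← mul_assoc, mul_assoc e g h]
        · rw [if_neg (hne g hg), if_neg (hne h hh), if_pos]
          · decide
          · rw [mul_assoc, hh, ← mul_assoc, ← mul_assoc, hg, mul_assoc (e * g) z h, ← hzc h, ← mul_assoc,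
              mul_assoc (e * g * h), hz2, mul_one, mul_assoc] }
  refine ⟨l, ?_⟩
  by_contra hcon
  push_neg at hcon
  have hcN : ∀ g ∈ N, g * e = e * g := by
    intro g hg
    by_contra h
    have h1 : l g = Multiplicative.ofAdd 1 := if_neg h
    rw [hcon g hg] at h1
    exact absurd h1 (by decide)
  have h1 : e ≠ 1 := fun h => hez (h ▸ Subgroup.one_mem _)
  have h2 := hZ z hzN e heN (fun g _ => hzc g) hcN hz1 h1
  exact hez (h2 ▸ Subgroup.mem_zpowers z)

/-- Combination of homomorphisms. -/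
theorem rk_three {Q : Type u} [Group Q] (l : Q →* Multiplicative (ZMod 2)) (f : Q →* Multiplicative (Fin 2 → ZMod 2))
    (hf : Function.Surjective f) {x : Q} (hx : f x = 1) (hlx : l x ≠ 1) : Rk 3 Q := by
  let F : Q →* Multiplicative (Fin 3 → ZMod 2) :=
    { toFun := fun g => Multiplicative.ofAdd (Fin.cons (l g).toAdd (f g).toAdd : Fin 3 → ZMod 2)
      map_one' := by
        rw [l.map_one, f.map_one, toAdd_one, toAdd_one]
        apply congrArg Multiplicative.ofAdd
        funext i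
        refine Fin.cases ?_ (fun j => ?_) i <;> simp
      map_mul' := by
        intro g h
        rw [l.map_mul, f.map_mul, toAdd_mul, toAdd_mul, ← ofAdd_add]
        apply congrArg Multiplicative.ofAdd
        funext i
        refine Fin.cases ?_ (fun j => ?_) i <;> simp }
  refine ⟨F, fun y => ?_⟩
  have key : ∀ a b : Multiplicative (ZMod 2), a ≠ 1 → ∀ c, b = c ∨ b * a = c := by decide
  obtain ⟨g, hg⟩ := hf (Multiplicative.ofAdd (Fin.tail y.toAdd))
  have hF : ∀ g', f g' = f g → l g' = Multiplicative.ofAdd (y.toAdd 0) → F g' = y := by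
    intro g' h1 h2
    change Multiplicative.ofAdd (Fin.cons (l g').toAdd (f g').toAdd : Fin 3 → ZMod 2) = y
    rw [h1, h2, hg, toAdd_ofAdd, toAdd_ofAdd, Fin.cons_self_tail]
    rfl
  rcases key (l x) (l g) hlx (Multiplicative.ofAdd (y.toAdd 0)) with h | h
  · exact ⟨g, hF g rfl h⟩
  · refine ⟨g * x, hF _ (by rw [map_mul, hx, mul_one]) (by rw [map_mul, h])⟩

/-- **The criterion.** -/
theorem crit {G : Type u} [Group G] [Finite G] (M : Subgroup G) (hM : ¬ 2 ∣ M.index) (L : Subgroup ↥M)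
    (hL : L.Normal) (f : ↥M →* Multiplicative (Fin 2 → ZMod 2)) (hf : Function.Surjective f) (hfL : L ≤ f.ker)
    (P₁ : Sylow 2 ↥L) (h4 : 4 ≤ Nat.card P₁)
    (hZ : ∀ x y : P₁, (∀ g : P₁, g * x = x * g) → (∀ g : P₁, g * y = y * g) → x ≠ 1 → y ≠ 1 → x = y) : D3 G := by
  -- a Sylow subgroup of `M` containing `P₁`
  have hP₁ : IsPGroup 2 ↥((P₁ : Subgroup ↥L).map L.subtype) := P₁.isPGroup'.map _
  obtain ⟨Q, hQ⟩ := hP₁.exists_le_sylow
  have hQL : (Q : Subgroup ↥M) ⊓ L = (P₁ : Subgroup ↥L).map L.subtype := by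
    have h1 : (P₁ : Subgroup ↥L) ≤ (Q : Subgroup ↥M).subgroupOf L := by
      intro x hx
      exact hQ ⟨x, hx, rfl⟩
    have h2 : IsPGroup 2 ↥((Q : Subgroup ↥M).subgroupOf L) :=
      (Q.isPGroup'.to_le inf_le_left : IsPGroup 2 ↥((Q : Subgroup ↥M) ⊓ L)).of_equiv
        (Subgroup.subgroupOfEquivOfLe inf_le_right : ((Q : Subgroup ↥M) ⊓ L).subgroupOf L ≃* _).symm |>.to_le (by
          rw [Subgroup.inf_subgroupOf_right])
    have h3 := P₁.is_maximal' h2 h1
    rw [← Subgroup.subgroupOf_map_subtype, h3]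
  have hQ3 : Rk 3 ↥(Q : Subgroup ↥M) := by
    let N : Subgroup ↥(Q : Subgroup ↥M) := L.subgroupOf Q
    have hNn : N.Normal := hL.subgroupOf _
    -- identification of `N` with `P₁`
    have hNP : ∀ x : ↥(Q : Subgroup ↥M), x ∈ N → ∃ y : P₁, ((y : ↥L) : ↥M) = x := by
      intro x hx
      have h1 : (x : ↥M) ∈ (Q : Subgroup ↥M) ⊓ L := ⟨x.2, hx⟩
      rw [hQL] at h1
      obtain ⟨y, hy, hyx⟩ := h1
      exact ⟨⟨y, hy⟩, hyx⟩
    have hPQ : ∀ y : P₁, ((y : ↥L) : ↥M) ∈ (Q : Subgroup ↥M) := fun y => hQ ⟨y, y.2, rfl⟩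
    have hcard : Nat.card P₁ ≤ Nat.card N := by
      refine Nat.card_le_card_of_injective
        (fun y : P₁ => (⟨⟨((y : ↥L) : ↥M), hPQ y⟩, (y : ↥L).2⟩ : N)) ?_
      intro a b hab
      have h1 := congrArg (fun t : N => ((t : ↥(Q : Subgroup ↥M)) : ↥M)) hab
      exact Subtype.ext (Subtype.ext h1)
    obtain ⟨l, x, hxN, hlx⟩ := exists_hom Q.isPGroup' N hNn (h4.trans hcard) (by
      intro x hx y hy hxc hyc hx1 hy1
      obtain ⟨x', hx'⟩ := hNP x hx
      obtain ⟨y', hy'⟩ := hNP y hy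
      have hc : ∀ (a : ↥(Q : Subgroup ↥M)) (a' : P₁), ((a' : ↥L) : ↥M) = a → (∀ g ∈ N, g * a = a * g) →
          ∀ g : P₁, g * a' = a' * g := by
        intro a a' haa hac g
        have h1 := hac ⟨((g : ↥L) : ↥M), hPQ g⟩ (g : ↥L).2
        have h2 := congrArg (fun t : ↥(Q : Subgroup ↥M) => (t : ↥M)) h1
        apply Subtype.ext
        apply Subtype.ext
        have h3 : ((g : ↥L) : ↥M) * (a : ↥M) = (a : ↥M) * ((g : ↥L) : ↥M) := h2
        rw [← haa] at h3
        exact h3
      have h1 : x' = y' := hZ x' y' (hc x x' hx' hxc) (hc y y' hy' hyc)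
        (by rintro rfl; exact hx1 (Subtype.ext hx'.symm)) (by rintro rfl; exact hy1 (Subtype.ext hy'.symm))
      apply Subtype.ext
      rw [← hx', ← hy', h1])
    have hfQ : Function.Surjective (f.comp (Q : Subgroup ↥M).subtype) := by
      have h1 : ((Q : Subgroup ↥M).map f).index ∣ (Q : Subgroup ↥M).index :=
        Subgroup.index_map_dvd _ hf
      have h2 : ¬ 2 ∣ (Q : Subgroup ↥M).index := Q.not_dvd_index
      have h3 : ((Q : Subgroup ↥M).map f).index ∣ 4 := by
        have := ((Q : Subgroup ↥M).map f).index_dvd_card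
        have h5 : Nat.card (Multiplicative (Fin 2 → ZMod 2)) = 4 := by
          rw [Nat.card_congr Multiplicative.toAdd, Nat.card_fun]
          simp
        rwa [h5] at this
      have h4 : ((Q : Subgroup ↥M).map f).index = 1 := by
        have h5 : ((Q : Subgroup ↥M).map f).index ∣ 2 ^ 2 := by simpa using h3
        obtain ⟨k, -, hk⟩ := (Nat.dvd_prime_pow Nat.prime_two).mp h5
        rcases Nat.eq_zero_or_pos k with h6 | h6
        · rw [hk, h6, pow_zero]
        · exact absurd ((hk ▸ dvd_pow_self 2 h6.ne' : 2 ∣ ((Q : Subgroup ↥M).map f).index).trans h1) h2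
      rw [Subgroup.index_eq_one] at h4
      intro y
      have h5 : y ∈ (Q : Subgroup ↥M).map f := by rw [h4]; trivial
      obtain ⟨x, hx, rfl⟩ := h5
      exact ⟨⟨x, hx⟩, rfl⟩
    exact rk_three l (f.comp (Q : Subgroup ↥M).subtype) hfQ (x := x) (hfL hxN) hlx
  -- transfer to the Sylow subgroups of `G`
  intro Q₀
  have hcardQ : Nat.card ↥((Q : Subgroup ↥M).map M.subtype) = 2 ^ (Nat.card G).factorization 2 := by
    have h1 : Nat.card ↥((Q : Subgroup ↥M).map M.subtype) = Nat.card Q :=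
      (Nat.card_congr ((Q : Subgroup ↥M).equivMapOfInjective M.subtype M.subtype_injective).toEquiv).symm
    rw [h1, Q.card_eq_multiplicity, ← M.index_mul_card,
      Nat.factorization_mul Subgroup.index_ne_zero_of_finite Nat.card_pos.ne', Finsupp.add_apply,
      Nat.factorization_eq_zero_of_not_dvd hM, zero_add]
  let Q₁ : Sylow 2 G := Sylow.ofCard ((Q : Subgroup ↥M).map M.subtype) hcardQ
  have e1 : ↥(Q : Subgroup ↥M) ≃* ↥(Q₁ : Subgroup G) :=
    (Q : Subgroup ↥M).equivMapOfInjective M.subtype M.subtype_injective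
  have e2 : Q₁ ≃* Q₀ := Sylow.equiv Q₁ Q₀
  obtain ⟨F, hF⟩ := hQ3
  exact ⟨F.comp ((e1.trans e2).symm.toMonoidHom), hF.comp (e1.trans e2).symm.surjective⟩

end Cfsg.Agent.H4.K547
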