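import Cfsg.Agent.H4.K547.Fr
import Cfsg.Agent.H512.LinFour.FrameE7

/-!
# S4547: `D3` for `E₇(q)`, `q` odd (helper4)
-/

set_option autoImplicit false

namespace Cfsg.Agent.H4.K547

open Cfsg Cfsg.Lie Cfsg.Agent.H821.K547 Cfsg.Agent.H512.LinFour.FrameA

universe u v

/-- two homomorphisms of the dihedral group of order 8 -/
def dd4 : DihedralGroup 4 → Fin 2 → ZMod 2
  | .r i => ![i.val, 0]
  | .sr i => ![i.val, 1]

theorem dd4_mul : ∀ x y, dd4 (x * y) = dd4 x + dd4 y := by decide +kernel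

theorem rk_dihedral : Rk 2 (DihedralGroup 4) := by
  refine ⟨MonoidHom.mk' (fun x => Multiplicative.ofAdd (dd4 x)) fun x y => congrArg Multiplicative.ofAdd (dd4_mul x y), ?_⟩
  have h : ∀ y : Fin 2 → ZMod 2, ∃ x, dd4 x = y := by decide +kernel
  intro y
  obtain ⟨x, hx⟩ := h y.toAdd
  exact ⟨x, congrArg Multiplicative.ofAdd hx⟩

theorem isPGroup_dihedral : IsPGroup 2 (DihedralGroup 4) :=
  IsPGroup.of_card (n := 3) (by rw [Nat.card_eq_fintype_card, DihedralGroup.card]; norm_num)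

/-- transport of `D3` -/
theorem d3_congr {G : Type u} {G' : Type v} [Group G] [Group G'] [Finite G'] (e : G ≃* G') (h : D3 G') : D3 G := by
  have : Finite G := Finite.of_equiv _ e.symm.toEquiv
  intro Q
  let Q' : Sylow 2 G' := Q.mapSurjective (f := e.toMonoidHom) e.surjective
  obtain ⟨f, hf⟩ := h Q'
  let e1 : Q ≃* Q' := (Q : Subgroup G).equivMapOfInjective e.toMonoidHom e.injective
  exact ⟨f.comp e1.toMonoidHom, hf.comp e1.surjective⟩

open Cfsg.Agent.H512.LinFour.FrameE7 in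
/-- **`D3` for `E₇(q)`, `q` odd** -/
theorem d3_E7 {F : Type u} [Field F] [Fintype F] (ho : Odd (Fintype.card F)) {G : Type v} [Group G]
    (e : G ≃* chevE7.group F) : D3 G := by
  have hfin : Finite ↥(chevE7.group F) := inferInstance
  refine d3_congr e ?_
  rw [← Nat.card_eq_fintype_card] at ho
  obtain ⟨o, ho', hcard⟩ := Cfsg.Agent.H512.LinFour.FrameE7.order_eq ho
  have hf := frame F ho
  have hi : ∀ {w : List ℕ} {σ : Equiv.Perm (Fin 7)}, (∀ i ∈ w, i < 7) → chk w σ = true → σ ∈ hf.pi.range := by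
    intro w σ hw hc
    obtain ⟨g, hg⟩ := isPerm_of (K := F) hw hc
    exact hf.mem_range hg
  have hA : Cfsg.Agent.H512.LinFour.FrameE7.pA ∈ hf.pi.range := hi (ltw _ (by simp)) chkA
  have hB : Cfsg.Agent.H512.LinFour.FrameE7.pB ∈ hf.pi.range := hi (ltw _ (by simp)) chkB
  refine d3_of_fr hf ho ho' isPGroup_dihedral rk_dihedral ?_ Cfsg.Agent.H512.LinFour.FrameE7.dih Cfsg.Agent.H512.LinFour.FrameE7.dih_injective ?_ 6
  · rw [Nat.card_eq_fintype_card (α := DihedralGroup 4), DihedralGroup.card, ← hcard, mul_comm,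
      ← Cfsg.Agent.S1064.result (F := F) Nat.card_eq_fintype_card.symm]
    congr 1
    rw [Nat.odd_iff] at ho
    exact (Nat.gcd_eq_left (by omega)).symm
  · rintro _ ⟨x, rfl⟩
    rcases x with i | i
    · exact pow_mem (mul_mem hA hB) _
    · exact mul_mem hA (pow_mem (mul_mem hA hB) _)

end Cfsg.Agent.H4.K547
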