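import Cfsg.Agent.H821.K547.Quat
import Cfsg.Agent.H512.LinFour.FrameE
import Cfsg.Agent.S0261

/-!
# S4547: `D3` from a frame of commuting `SL(2, F)` (helper4)

`d3_of_fr` : a frame of `n` commuting `SL(2, F)` (`H512.LinFour.FrameA.Fr`), `|F|` odd, whose stabiliser induces on the
components a 2-group `H` with `Rk 2 H` and `|G| d = |H| (|F| ^ 2 - 1) ^ n o`, `o` odd.
-/

set_option autoImplicit false

namespace Cfsg.Agent.H4.K547

open Subgroup Cfsg.Agent.H821.K547 Cfsg.Agent.H512.LinFour.FrameA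
open scoped MatrixGroups

universe u v w

variable {G : Type u} [Group G] {F : Type v} [Field F] {n d : ℕ} {T : Subgroup G} {φ : Fin n → (SL(2, F) →* G)}

/-- a subgroup of odd index of the image of the permutation action -/
theorem not_dvd_relIndex (hf : Fr d T φ) [Finite G] [Finite F] {c o : ℕ} (ho : Odd o) (hc0 : 0 < c)
    (hcard : Nat.card G * d = c * (Nat.card F ^ 2 - 1) ^ n * o) {H0 : Subgroup (Equiv.Perm (Fin n))}
    (hc : Nat.card H0 = c) (hle : H0 ≤ hf.pi.range) : ¬ 2 ∣ H0.relIndex hf.pi.range := by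
  have := Fintype.ofFinite F
  have hup : ¬ c * 2 ∣ Nat.card hf.pi.range := by
    intro h
    have e2 := hf.dvd_card h
    rw [Cfsg.Agent.ClassicalGeometry.PSL2Basic.card_SL2, ← Nat.card_eq_fintype_card, mul_pow] at e2
    have e3 := (NN φ).card_mul_index
    obtain ⟨k, hk⟩ := e2
    have e4 : (c * (Nat.card F ^ 2 - 1) ^ n) * o =
        (c * (Nat.card F ^ 2 - 1) ^ n) * (2 * (Nat.card F ^ n * k * (NN φ).index)) := by
      rw [← hcard, ← e3, mul_right_comm, hk]; ring
    have hpos : 0 < c * (Nat.card F ^ 2 - 1) ^ n := by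
      have h1 : 1 < Nat.card F := Finite.one_lt_card
      have : 1 < Nat.card F ^ 2 := by nlinarith
      have : 0 < (Nat.card F ^ 2 - 1) ^ n := pow_pos (by omega) n
      exact Nat.mul_pos hc0 this
    have e5 := Nat.eq_of_mul_eq_mul_left hpos e4
    rw [e5] at ho
    exact (Nat.not_even_iff_odd.2 ho) ⟨_, two_mul _⟩
  rintro ⟨k, hk⟩
  apply hup
  have h1 := Subgroup.card_mul_index (H0.subgroupOf hf.pi.range)
  have h2 : Nat.card (H0.subgroupOf hf.pi.range) = c := by
    rw [Nat.card_congr (Subgroup.subgroupOfEquivOfLe hle).toEquiv, hc]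
  rw [h2] at h1
  change c * H0.relIndex hf.pi.range = _ at h1
  rw [hk] at h1
  exact ⟨k, by rw [← h1]; ring⟩

/-- **`D3` from a frame.** -/
theorem d3_of_fr (hf : Fr d T φ) [Finite G] [Finite F] (h2 : Odd (Nat.card F)) {o : ℕ} (ho : Odd o)
    {H : Type w} [Group H] [Finite H] (hH : IsPGroup 2 H) (hrk : Rk 2 H)
    (hcard : Nat.card G * d = Nat.card H * (Nat.card F ^ 2 - 1) ^ n * o)
    (j : H →* Equiv.Perm (Fin n)) (hj : Function.Injective j) (hle : j.range ≤ hf.pi.range) (i : Fin n) : D3 G := by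
  classical
  have := Fintype.ofFinite F
  have hc0 : 0 < Nat.card H := Nat.card_pos
  have hcj : Nat.card j.range = Nat.card H := (Nat.card_congr (MonoidHom.ofInjective hj).toEquiv).symm
  have hodd : Odd (NN φ).index := hf.odd_index ho hc0 hcard (by rw [← hcj]; exact card_dvd_of_le hle)
  have hrel := not_dvd_relIndex hf ho hc0 hcard hcj hle
  -- the subgroup
  set N1 : Subgroup (NN φ) := j.range.comap hf.pi with hN1
  have hN1i : ¬ 2 ∣ N1.index := by rw [hN1, Subgroup.index_comap]; exact hrel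
  let f : N1 →* j.range := hf.pi.subgroupComap j.range
  have hfs : Function.Surjective f := by
    rintro ⟨y, hy⟩
    obtain ⟨x, hx⟩ := hle hy
    refine ⟨⟨x, ?_⟩, Subtype.ext hx⟩
    change hf.pi x ∈ j.range
    rw [hx]; exact hy
  let M : Subgroup G := N1.map (NN φ).subtype
  have hM : ¬ 2 ∣ M.index := by
    intro h
    have h1 : M.index = N1.index * (NN φ).index := Subgroup.index_map_subtype _
    rw [h1] at h
    rcases (Nat.Prime.dvd_mul Nat.prime_two).1 h with h | h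
    · exact hN1i h
    · exact (Nat.not_even_iff_odd.2 hodd) (even_iff_two_dvd.2 h)
  let e : N1 ≃* M := N1.equivMapOfInjective _ (NN φ).subtype_injective
  have he : ∀ m : M, ((e.symm m : NN φ) : G) = m := fun m => by
    conv_rhs => rw [← e.apply_symm_apply m]
    rfl
  let e2 : H ≃* j.range := MonoidHom.ofInjective hj
  let F' : M →* H := e2.symm.toMonoidHom.comp (f.comp e.symm.toMonoidHom)
  have hF' : Function.Surjective F' := e2.symm.surjective.comp (hfs.comp e.symm.surjective)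
  -- the component
  let L : Subgroup G := (φ i).range
  have hLp : ∀ a ∈ L, IsPerm φ a 1 := by
    intro a ha
    obtain ⟨x, hx⟩ := hf.range_le i ha
    rw [← hx]
    exact fun k => hf.M_range_conj x k
  have hpi : ∀ a (ha : a ∈ L), hf.pi ⟨a, 1, hLp a ha⟩ = 1 := fun a ha => hf.pi_eq (hLp a ha)
  have hL : L ≤ M := by
    intro a ha
    refine ⟨⟨a, 1, hLp a ha⟩, ?_, rfl⟩
    show hf.pi _ ∈ j.range
    rw [hpi a ha]
    exact one_mem _
  have hLF : ∀ a (h : a ∈ L), F' ⟨a, hL h⟩ = 1 := by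
    intro a ha
    have h1 : f (e.symm ⟨a, hL ha⟩) = 1 := by
      apply Subtype.ext
      show hf.pi (e.symm ⟨a, hL ha⟩ : NN φ) = 1
      rw [← hpi a ha]
      congr 1
      exact Subtype.ext (he ⟨a, hL ha⟩)
    show e2.symm (f (e.symm ⟨a, hL ha⟩)) = 1
    rw [h1, map_one]
  have hc : ∀ t ∈ M, (∀ a ∈ L, t * a * t⁻¹ ∈ L) ∨ ∀ a ∈ L, ∀ b ∈ L, a * (t * b * t⁻¹) = t * b * t⁻¹ * a := by
    rintro _ ⟨t, -, rfl⟩
    have h1 := hf.pi_spec t i
    have h3 : ∀ a ∈ L, (t : G) * a * (t : G)⁻¹ ∈ (φ (hf.pi t i)).range := by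
      intro a ha
      rw [← h1]
      exact ⟨a, ha, rfl⟩
    by_cases hi : hf.pi t i = i
    · left
      intro a ha
      have := h3 a ha
      rw [hi] at this
      exact this
    · right
      rintro _ ⟨x, rfl⟩ b hb
      obtain ⟨y, hy⟩ := h3 b hb
      change φ i x * ((t : G) * b * (t : G)⁻¹) = (t : G) * b * (t : G)⁻¹ * φ i x
      rw [← hy]
      exact hf.comm _ _ (Ne.symm hi) x y
  -- the Sylow subgroups of the component
  let eL : SL(2, F) ≃* L := MonoidHom.ofInjective (hf.inj i)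
  obtain ⟨Q⟩ : Nonempty (Sylow 2 L) := inferInstance
  obtain ⟨Q0⟩ : Nonempty (Sylow 2 SL(2, F)) := inferInstance
  obtain ⟨k, hk, ⟨eQ⟩⟩ := Cfsg.Agent.S0261.result (by rwa [← Nat.card_eq_fintype_card]) Q0
  have eQ1 : Q ≃* Q0 := by
    let Q1 : Sylow 2 L := Q0.mapSurjective (f := eL.toMonoidHom) eL.surjective
    have h5 : Q0 ≃* Q1 := (Q0 : Subgroup SL(2, F)).equivMapOfInjective eL.toMonoidHom eL.injective
    exact (Q.equiv Q1).trans h5.symm
  obtain ⟨hna, hZ⟩ := quaternion_cond (n := 2 ^ k) (by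
    calc 2 = 2 ^ 1 := rfl
      _ ≤ 2 ^ k := Nat.pow_le_pow_right (by norm_num) hk) (eQ1.trans eQ)
  refine d3_of_commuting M L hM hL hc Q hna hZ F' hF' hLF fun R => ?_
  have h6 : (R : Subgroup H) = ⊤ := (R.3 (hH.to_subgroup ⊤) le_top).symm
  obtain ⟨g, hg⟩ := hrk
  refine ⟨g.comp (R : Subgroup H).subtype, fun y => ?_⟩
  obtain ⟨x, hx⟩ := hg y
  exact ⟨⟨x, by rw [h6]; trivial⟩, hx⟩

end Cfsg.Agent.H4.K547
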